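import Cfsg.Agent.Lib.Helper54.NIL.Defs

set_option autoImplicit false

namespace Cfsg.Agent.Lib.Helper54.NIL

/-- [ARITH] -/
theorem arith (q d k : ℕ) (hq : 0 < q) (hk : k + 1 ≤ d) :
    (q ^ d - q ^ (k + 1)) * q ^ (d * (d - (k + 2))) + q ^ ((d - (k + 1)) * (d - (k + 1) - 1)) *
      q ^ ((k + 1) * (d - (k + 1))) = q ^ (d * (d - (k + 1))) := by
  rcases Nat.eq_or_lt_of_le hk with h | h
  · subst h
    simp
  · obtain ⟨t, rfl⟩ : ∃ t, d = t + (k + 2) := ⟨d - (k + 2), by omega⟩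
    have e1 : t + (k + 2) - (k + 2) = t := by omega
    have e2 : t + (k + 2) - (k + 1) = t + 1 := by omega
    have e3 : t + 1 - 1 = t := by omega
    rw [e1, e2, e3, ← pow_add]
    have e4 : (t + 1) * t + (k + 1) * (t + 1) = (t + (k + 2)) * t + (k + 1) := by ring
    rw [e4]
    have hle : q ^ (k + 1) ≤ q ^ (t + (k + 2)) := Nat.pow_le_pow_right hq (by omega)
    rw [Nat.sub_mul]
    have e5 : q ^ (k + 1) * q ^ ((t + (k + 2)) * t) = q ^ ((t + (k + 2)) * t + (k + 1)) := by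
      rw [← pow_add]; congr 1; ring
    have e6 : q ^ (t + (k + 2)) * q ^ ((t + (k + 2)) * t) = q ^ ((t + (k + 2)) * (t + 1)) := by
      rw [← pow_add]; congr 1; ring
    rw [e5, e6]
    apply Nat.sub_add_cancel
    apply Nat.pow_le_pow_right hq
    nlinarith

end Cfsg.Agent.Lib.Helper54.NIL
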