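import Cfsg.Agent.Lib.Helper54.NIL.Defs

set_option autoImplicit false

namespace Cfsg.Agent.Lib.Helper54.NIL

variable {F V : Type*} [Field F] [AddCommGroup V] [Module F V]

/-- [BLA] -/
theorem isNilpotent_iff_quot (W : Submodule F V) (N₀ N : Module.End F V) (hN₀ : IsNilpotent N₀)
    (hW : ∀ w ∈ W, N₀ w ∈ W) (hN : ∀ w ∈ W, N w = N₀ w) (M : Module.End F (V ⧸ W))
    (hM : ∀ x, M (W.mkQ x) = W.mkQ (N x)) : IsNilpotent N ↔ IsNilpotent M := by
  have hpow : ∀ (a : ℕ) (x : V), (M ^ a) (W.mkQ x) = W.mkQ ((N ^ a) x) := by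
    intro a
    induction a with
    | zero => intro x; simp
    | succ a ih =>
      intro x
      rw [pow_succ, Module.End.mul_apply, hM, ih, pow_succ, Module.End.mul_apply]
  have hpowW : ∀ (b : ℕ) (w : V), w ∈ W → (N ^ b) w = (N₀ ^ b) w := by
    intro b
    induction b with
    | zero => intro w _; simp
    | succ b ih =>
      intro w hw
      rw [pow_succ, Module.End.mul_apply, hN w hw, ih _ (hW w hw), pow_succ, Module.End.mul_apply]
  constructor
  · rintro ⟨a, ha⟩
    refine ⟨a, LinearMap.ext fun y => ?_⟩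
    obtain ⟨x, rfl⟩ := W.mkQ_surjective y
    rw [hpow, ha]
    simp
  · rintro ⟨a, ha⟩
    obtain ⟨b, hb⟩ := hN₀
    refine ⟨b + a, LinearMap.ext fun x => ?_⟩
    have h1 : (N ^ a) x ∈ W := by
      have := hpow a x
      rw [ha] at this
      simpa using this.symm
    rw [pow_add, Module.End.mul_apply, hpowW b _ h1, hb]
    simp

end Cfsg.Agent.Lib.Helper54.NIL
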