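import Cfsg.Agent.Lib.Helper54.NIL.Defs

set_option autoImplicit false

namespace Cfsg.Agent.Lib.Helper54.NIL

open Module

variable {F V : Type*} [Field F] [AddCommGroup V] [Module F V]

/-- [BLB] -/
theorem card_extensions [Fintype F] [FiniteDimensional F V] (W : Submodule F V)
    (N₀ : Module.End F V) (hW : ∀ w ∈ W, N₀ w ∈ W) (P : Module.End F (V ⧸ W) → Prop) :
    Nat.card {N : Module.End F V // (∀ w ∈ W, N w = N₀ w) ∧
        ∃ M : Module.End F (V ⧸ W), P M ∧ ∀ x, M (W.mkQ x) = W.mkQ (N x)} =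
      Nat.card {M : Module.End F (V ⧸ W) // P M} *
        Fintype.card F ^ (finrank F W * finrank F (V ⧸ W)) := by
  classical
  obtain ⟨σ, hσ⟩ := W.mkQ.exists_rightInverse_of_surjective (Submodule.range_mkQ W)
  have hσ' : ∀ y, W.mkQ (σ y) = y := fun y => LinearMap.congr_fun hσ y
  have hle : W ≤ W.comap N₀ := fun w hw => hW w hw
  obtain ⟨M₀, hM₀⟩ : ∃ M₀ : Module.End F (V ⧸ W), ∀ x, M₀ (W.mkQ x) = W.mkQ (N₀ x) :=
    ⟨W.mapQ W N₀ hle, fun x => by simp⟩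
  have hcard : Nat.card ((V ⧸ W) →ₗ[F] W) = Fintype.card F ^ (finrank F W * finrank F (V ⧸ W)) := by
    rw [Module.natCard_eq_pow_finrank (K := F), Module.finrank_linearMap, Nat.card_eq_fintype_card,
      mul_comm]
  rw [← hcard, ← Nat.card_prod]
  apply Nat.card_congr
  symm
  let Ψ : ({M : Module.End F (V ⧸ W) // P M} × ((V ⧸ W) →ₗ[F] W)) → Module.End F V := fun z =>
    N₀ + (σ ∘ₗ (z.1.1 - M₀) + W.subtype ∘ₗ z.2) ∘ₗ W.mkQ
  have hΨ : ∀ z x, Ψ z x = N₀ x + (σ (z.1.1 (W.mkQ x) - M₀ (W.mkQ x)) + (z.2 (W.mkQ x) : V)) := by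
    intro z x
    simp [Ψ]
  have hΨq : ∀ z x, W.mkQ (Ψ z x) = z.1.1 (W.mkQ x) := by
    intro z x
    rw [hΨ, map_add, map_add, hσ', ← hM₀]
    have : W.mkQ (z.2 (W.mkQ x) : V) = 0 := by simp
    rw [this]
    abel
  refine Equiv.ofBijective (fun z => ⟨Ψ z, ?_, z.1.1, z.1.2, fun x => (hΨq z x).symm⟩) ⟨?_, ?_⟩
  · intro w hw
    have h0 : W.mkQ w = 0 := by simpa using hw
    rw [hΨ, h0]
    simp
  · intro z z' hzz
    have h1 : Ψ z = Ψ z' := congrArg Subtype.val hzz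
    have h2 : z.1.1 = z'.1.1 := by
      apply LinearMap.ext
      intro y
      obtain ⟨x, rfl⟩ := W.mkQ_surjective y
      rw [← hΨq z x, ← hΨq z' x, h1]
    have h3 : z.2 = z'.2 := by
      apply LinearMap.ext
      intro y
      obtain ⟨x, rfl⟩ := W.mkQ_surjective y
      have h4 := LinearMap.congr_fun h1 x
      rw [hΨ, hΨ, h2] at h4
      exact Subtype.ext (add_left_cancel (add_left_cancel h4))
    exact Prod.ext (Subtype.ext h2) h3
  · rintro ⟨N, hN, M, hPM, hMN⟩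
    have hD : W ≤ LinearMap.ker (N - N₀) := by
      intro w hw
      rw [LinearMap.mem_ker, LinearMap.sub_apply, hN w hw, sub_self]
    obtain ⟨D', hD'⟩ : ∃ D' : (V ⧸ W) →ₗ[F] V, ∀ x, D' (W.mkQ x) = N x - N₀ x :=
      ⟨W.liftQ (N - N₀) hD, fun x => by simp⟩
    have hmem : ∀ y, (D' - σ ∘ₗ (M - M₀)) y ∈ W := by
      intro y
      obtain ⟨x, rfl⟩ := W.mkQ_surjective y
      have hk : W.mkQ ((D' - σ ∘ₗ (M - M₀)) (W.mkQ x)) = 0 := by
        rw [LinearMap.sub_apply, map_sub, hD', map_sub,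
          LinearMap.comp_apply, hσ', LinearMap.sub_apply, hMN, hM₀, sub_self]
      exact (Submodule.Quotient.mk_eq_zero W).1 hk
    refine ⟨(⟨M, hPM⟩, LinearMap.codRestrict W (D' - σ ∘ₗ (M - M₀)) hmem), Subtype.ext ?_⟩
    apply LinearMap.ext
    intro x
    show Ψ _ x = N x
    rw [hΨ]
    simp only [LinearMap.codRestrict_apply, LinearMap.sub_apply, LinearMap.comp_apply, hD']
    abel

end Cfsg.Agent.Lib.Helper54.NIL
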