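import Cfsg.Agent.Lib.Helper54.NIL.Defs

set_option autoImplicit false

namespace Cfsg.Agent.Lib.Helper54.NIL

open Module

variable {F V : Type*} [Field F] [AddCommGroup V] [Module F V]

/-- the shift on coordinate vectors. -/
def exSh (F : Type*) [Field F] (k : ℕ) : (Fin (k + 1) → F) →ₗ[F] (Fin (k + 1) → F) where
  toFun f j := if h : (j : ℕ) = 0 then 0 else f ⟨j - 1, by omega⟩
  map_add' f g := by
    funext j
    by_cases h : (j : ℕ) = 0
    · simp only [Pi.add_apply, dif_pos h, add_zero]
    · simp only [Pi.add_apply, dif_neg h]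
  map_smul' c f := by
    funext j
    by_cases h : (j : ℕ) = 0
    · simp only [Pi.smul_apply, dif_pos h, smul_zero]
    · simp only [Pi.smul_apply, dif_neg h, RingHom.id_apply]

theorem exSh_apply (k : ℕ) (f : Fin (k + 1) → F) (j : Fin (k + 1)) :
    exSh F k f j = if h : (j : ℕ) = 0 then 0 else f ⟨j - 1, by omega⟩ := rfl

theorem exSh_pow (k : ℕ) : ∀ (m : ℕ) (f : Fin (k + 1) → F) (j : Fin (k + 1)), (j : ℕ) < m →
    ((exSh F k) ^ m) f j = 0 := by
  intro m
  induction m with
  | zero => intro f j hj; omega
  | succ m ih =>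
    intro f j hj
    rw [pow_succ', Module.End.mul_apply, exSh_apply]
    by_cases h : (j : ℕ) = 0
    · simp [h]
    · rw [dif_neg h]
      exact ih f _ (by simp; omega)

theorem exSh_single (k : ℕ) (i j : Fin (k + 1)) (hij : (i : ℕ) + 1 = j) :
    exSh F k (Pi.single i 1) = Pi.single j 1 := by
  funext l
  rw [exSh_apply]
  by_cases h : (l : ℕ) = 0
  · rw [dif_pos h, Pi.single_apply, if_neg]
    intro hl
    rw [hl] at h
    omega
  · rw [dif_neg h, Pi.single_apply, Pi.single_apply]
    by_cases hl : l = j
    · rw [if_pos hl, if_pos]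
      apply Fin.ext
      simp only
      rw [hl]; omega
    · rw [if_neg hl, if_neg]
      intro h2
      apply hl
      apply Fin.ext
      have := congrArg Fin.val h2
      simp only at this
      omega

theorem exSh_single_last (k : ℕ) : exSh F k (Pi.single (Fin.last k) 1) = 0 := by
  funext l
  rw [exSh_apply]
  by_cases h : (l : ℕ) = 0
  · rw [dif_pos h]; rfl
  · rw [dif_neg h, Pi.single_apply, if_neg]
    · rfl
    · intro h2
      have := congrArg Fin.val h2
      have h3 := l.2
      simp only [Fin.val_last] at this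
      omega

/-- [EX] -/
theorem exists_shift [FiniteDimensional F V] {k : ℕ} (e : Fin (k + 1) → V)
    (he : LinearIndependent F e) :
    ∃ N₀ : Module.End F V, IsNilpotent N₀ ∧ Chain e N₀ ∧ N₀ (e (Fin.last k)) = 0 := by
  classical
  obtain ⟨E, hE⟩ : ∃ E, E = Fintype.linearCombination F e := ⟨_, rfl⟩
  have hinj : Function.Injective E := hE ▸ linearIndependent_iff_injective_fintypeLinearCombination.1 he
  obtain ⟨φ, hφ⟩ := LinearMap.exists_leftInverse_of_injective E (LinearMap.ker_eq_bot.2 hinj)
  have hφE : ∀ x, φ (E x) = x := fun x => LinearMap.congr_fun hφ x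
  have hEs : ∀ i, E (Pi.single i 1) = e i := by
    intro i
    rw [hE]
    simp [Fintype.linearCombination_apply_single]
  have hpow : ∀ m v, ((E ∘ₗ exSh F k ∘ₗ φ : Module.End F V) ^ (m + 1)) v =
      E (((exSh F k) ^ (m + 1)) (φ v)) := by
    intro m
    induction m with
    | zero => intro v; simp
    | succ m ih =>
      intro v
      rw [pow_succ', Module.End.mul_apply, ih]
      simp only [LinearMap.comp_apply]
      rw [hφE, pow_succ' _ (m + 1), Module.End.mul_apply]
  refine ⟨E ∘ₗ exSh F k ∘ₗ φ, ⟨k + 1, LinearMap.ext fun v => ?_⟩, ?_, ?_⟩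
  · rw [hpow]
    have : ((exSh F k) ^ (k + 1)) (φ v) = 0 := by
      funext j
      exact exSh_pow k (k + 1) _ j j.2
    rw [this]; simp
  · intro i j hij
    simp only [LinearMap.comp_apply]
    rw [← hEs i, hφE, exSh_single k i j hij, hEs]
  · simp only [LinearMap.comp_apply]
    rw [← hEs (Fin.last k), hφE, exSh_single_last, map_zero]

end Cfsg.Agent.Lib.Helper54.NIL
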