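import Cfsg.Agent.Lib.Helper54.NIL.Defs

set_option autoImplicit false

namespace Cfsg.Agent.Lib.Helper54.NIL

variable {F V : Type*} [Field F] [AddCommGroup V] [Module F V]

theorem chain_snoc_iff {k : ℕ} (e : Fin (k + 1) → V) (v : V) (N : Module.End F V) :
    Chain (Fin.snoc e v : Fin (k + 2) → V) N ↔ Chain e N ∧ N (e (Fin.last k)) = v := by
  constructor
  · intro h
    refine ⟨fun i j hij => ?_, ?_⟩
    · have := h i.castSucc j.castSucc (by simpa using hij)
      simpa using this
    · have := h (Fin.last k).castSucc (Fin.last (k + 1)) (by simp)
      simpa using this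
  · rintro ⟨hc, hl⟩ i j hij
    induction i using Fin.lastCases with
    | last =>
      exfalso
      have := j.2
      simp at hij
      omega
    | cast i =>
      induction j using Fin.lastCases with
      | last =>
        have hi : i = Fin.last k := by
          apply Fin.ext
          simp at hij
          simpa using hij
        subst hi
        simpa using hl
      | cast j =>
        have := hc i j (by simpa using hij)
        simpa using this

/-- [FIB] -/
theorem card_fiber {k : ℕ} (e : Fin (k + 1) → V) (v : V) :
    Nat.card {N : Module.End F V // (IsNilpotent N ∧ Chain e N) ∧ N (e (Fin.last k)) = v} =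
      Nat.card {N : Module.End F V // IsNilpotent N ∧ Chain (Fin.snoc e v : Fin (k + 2) → V) N} := by
  apply Nat.card_congr
  apply Equiv.subtypeEquivRight
  intro N
  rw [chain_snoc_iff, and_assoc]

end Cfsg.Agent.Lib.Helper54.NIL
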