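import Cfsg.Agent.Lib.Helper54.NIL.Defs

set_option autoImplicit false

namespace Cfsg.Agent.Lib.Helper54.NIL

variable {F V : Type*} [Field F] [AddCommGroup V] [Module F V]

theorem chain_eq_pow {k : ℕ} (e : Fin (k + 1) → V) (N : Module.End F V) (hc : Chain e N) :
    ∀ (i : ℕ) (hi : i < k + 1), e ⟨i, hi⟩ = (N ^ i) (e 0) := by
  intro i
  induction i with
  | zero => intro _; simp
  | succ i ih =>
    intro hi
    have h1 := hc ⟨i, by omega⟩ ⟨i + 1, hi⟩ rfl
    rw [← h1, ih (by omega), pow_succ', Module.End.mul_apply]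

/-- [NILW] -/
theorem eq_zero_of_mem_span {k : ℕ} (e : Fin (k + 1) → V) (he : LinearIndependent F e)
    (N : Module.End F V) (hN : IsNilpotent N) (hc : Chain e N)
    (h : N (e (Fin.last k)) ∈ Submodule.span F (Set.range e)) : N (e (Fin.last k)) = 0 := by
  classical
  obtain ⟨c, hcs⟩ := (Submodule.mem_span_range_iff_exists_fun F).1 h
  by_contra hne
  set x := e 0 with hx
  have hpow := chain_eq_pow e N hc
  -- nilpotency order of x
  have hex : ∃ m, (N ^ m) x = 0 := by
    obtain ⟨m, hm⟩ := hN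
    exact ⟨m, by rw [hm]; simp⟩
  obtain ⟨m, hm, hmin⟩ : ∃ m, (N ^ m) x = 0 ∧ ∀ l < m, (N ^ l) x ≠ 0 :=
    ⟨Nat.find hex, Nat.find_spec hex, fun l hl => Nat.find_min hex hl⟩
  have hzero : ∀ l, m ≤ l → (N ^ l) x = 0 := by
    intro l hl
    obtain ⟨r, rfl⟩ := Nat.exists_eq_add_of_le hl
    rw [add_comm, pow_add, Module.End.mul_apply, hm, map_zero]
  have hkm : k < m := by
    by_contra hcon
    have h1 := hzero k (by omega)
    have h2 := hpow k (by omega)
    rw [h1] at h2
    exact he.ne_zero _ h2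
  -- minimal index with nonzero coefficient
  have hexj : ∃ j, ∃ hj : j < k + 1, c ⟨j, hj⟩ ≠ 0 := by
    by_contra hcon
    push Not at hcon
    apply hne
    rw [← hcs]
    apply Finset.sum_eq_zero
    intro i _
    rw [hcon i.1 i.2, zero_smul]
  obtain ⟨j, ⟨hj, hcj⟩, hjmin⟩ : ∃ j, (∃ hj : j < k + 1, c ⟨j, hj⟩ ≠ 0) ∧
      ∀ l < j, ¬ ∃ hl : l < k + 1, c ⟨l, hl⟩ ≠ 0 :=
    ⟨Nat.find hexj, Nat.find_spec hexj, fun l hl => Nat.find_min hexj hl⟩
  have hL : (N ^ (m - 1 - j)) (N (e (Fin.last k))) = 0 := by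
    have h1 : e (Fin.last k) = (N ^ k) x := hpow k (by omega)
    rw [h1, ← Module.End.mul_apply, ← Module.End.mul_apply, ← pow_succ, ← pow_add]
    exact hzero _ (by omega)
  rw [← hcs, map_sum] at hL
  rw [Finset.sum_eq_single (⟨j, hj⟩ : Fin (k + 1))] at hL
  · rw [map_smul, hpow j hj, ← Module.End.mul_apply, ← pow_add] at hL
    have h2 : m - 1 - j + j = m - 1 := by omega
    rw [h2] at hL
    rcases smul_eq_zero.1 hL with h3 | h3
    · exact hcj h3
    · exact hmin (m - 1) (by omega) h3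
  · intro i _ hij
    rcases lt_or_gt_of_ne (fun h => hij (Fin.ext h) : (i : ℕ) ≠ j) with hlt | hgt
    · have : c i = 0 := by
        by_contra h4
        exact hjmin i hlt ⟨i.2, h4⟩
      rw [this, zero_smul, map_zero]
    · rw [map_smul, show e i = (N ^ (i : ℕ)) x from hpow i i.2, ← Module.End.mul_apply, ← pow_add,
        hzero _ (by omega), smul_zero]
  · intro h5; exact absurd (Finset.mem_univ _) h5

end Cfsg.Agent.Lib.Helper54.NIL
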