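import Cfsg.Agent.Lib.Helper54.NIL.Defs

set_option autoImplicit false

namespace Cfsg.Agent.Lib.Helper54.NIL

open Module

variable {F V : Type*} [Field F] [AddCommGroup V] [Module F V]

/-- [SUM] -/
theorem card_eq_sum [Fintype F] [FiniteDimensional F V] {k : ℕ} (e : Fin (k + 1) → V)
    (he : LinearIndependent F e) (a b : ℕ)
    (h0 : Nat.card {N : Module.End F V // (IsNilpotent N ∧ Chain e N) ∧ N (e (Fin.last k)) = 0} = a)
    (h1 : ∀ v : V, v ∉ Submodule.span F (Set.range e) →
      Nat.card {N : Module.End F V // (IsNilpotent N ∧ Chain e N) ∧ N (e (Fin.last k)) = v} = b)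
    (h2 : ∀ v : V, v ∈ Submodule.span F (Set.range e) → v ≠ 0 →
      IsEmpty {N : Module.End F V // (IsNilpotent N ∧ Chain e N) ∧ N (e (Fin.last k)) = v}) :
    Nat.card {N : Module.End F V // IsNilpotent N ∧ Chain e N} =
      (Fintype.card F ^ finrank F V - Fintype.card F ^ (k + 1)) * b + a := by
  classical
  have hfinV : Finite V := Module.finite_of_finite F
  have hfinE : Finite (Module.End F V) := Module.finite_of_finite F
  have : Fintype V := Fintype.ofFinite V
  obtain ⟨W, hW⟩ : ∃ W, W = Submodule.span F (Set.range e) := ⟨_, rfl⟩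
  rw [← hW] at h1 h2
  have e1 : {N : Module.End F V // IsNilpotent N ∧ Chain e N} ≃
      Σ v : V, {N : Module.End F V // (IsNilpotent N ∧ Chain e N) ∧ N (e (Fin.last k)) = v} :=
    (Equiv.sigmaFiberEquiv
      (fun N : {N : Module.End F V // IsNilpotent N ∧ Chain e N} => N.1 (e (Fin.last k)))).symm.trans
      (Equiv.sigmaCongrRight fun v => Equiv.subtypeSubtypeEquivSubtypeInter
        (fun N : Module.End F V => IsNilpotent N ∧ Chain e N) (fun N => N (e (Fin.last k)) = v))
  rw [Nat.card_congr e1, Nat.card_sigma]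
  rw [← Finset.sum_filter_add_sum_filter_not Finset.univ (fun v => v ∈ W)]
  have s1 : ∑ v ∈ Finset.univ.filter (fun v => v ∈ W),
      Nat.card {N : Module.End F V // (IsNilpotent N ∧ Chain e N) ∧ N (e (Fin.last k)) = v} = a := by
    rw [Finset.sum_eq_single (0 : V)]
    · exact h0
    · intro v hv hv0
      have := h2 v (Finset.mem_filter.1 hv).2 hv0
      exact Nat.card_of_isEmpty
    · intro h
      exact absurd (Finset.mem_filter.2 ⟨Finset.mem_univ _, W.zero_mem⟩) h
  have s2 : ∑ v ∈ Finset.univ.filter (fun v => ¬ v ∈ W),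
      Nat.card {N : Module.End F V // (IsNilpotent N ∧ Chain e N) ∧ N (e (Fin.last k)) = v} =
      (Finset.univ.filter (fun v => ¬ v ∈ W)).card * b :=
    Finset.sum_const_nat fun v hv => h1 v (Finset.mem_filter.1 hv).2
  rw [s1, s2]
  have c1 : (Finset.univ.filter (fun v => v ∈ W)).card = Fintype.card F ^ (k + 1) := by
    have h3 : finrank F W = k + 1 := by rw [hW, finrank_span_eq_card he]; simp
    have h4 : Nat.card W = Fintype.card F ^ (k + 1) := by
      rw [Module.natCard_eq_pow_finrank (K := F), h3, Nat.card_eq_fintype_card]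
    rw [← h4, ← Fintype.card_subtype, Nat.card_eq_fintype_card]
  have c2 : Fintype.card V = Fintype.card F ^ finrank F V := Module.card_eq_pow_finrank
  have c3 := Finset.card_filter_add_card_filter_not (s := (Finset.univ : Finset V)) (fun v => v ∈ W)
  rw [c1, Finset.card_univ, c2] at c3
  have c4 : (Finset.univ.filter (fun v => ¬ v ∈ W)).card =
      Fintype.card F ^ finrank F V - Fintype.card F ^ (k + 1) := by omega
  rw [c4, add_comm]

end Cfsg.Agent.Lib.Helper54.NIL
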