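import Cfsg.Agent.Lib.Helper54.NIL.Defs

set_option autoImplicit false

namespace Cfsg.Agent.Lib.Helper54.NIL

open Module

theorem uni_nil_of_order {R : Type*} [Ring R] (p : ℕ) [Fact p.Prime] [CharP R p] (u : Rˣ)
    (h : ∃ k : ℕ, orderOf u = p ^ k) : IsNilpotent ((u : R) - 1) := by
  obtain ⟨k, hk⟩ := h
  refine ⟨p ^ k, ?_⟩
  rw [sub_pow_char_pow_of_commute p k (Commute.one_right _), one_pow, ← Units.val_pow_eq_pow_val,
    ← hk, pow_orderOf_eq_one]
  simp

theorem uni_exists_unit {R : Type*} [Ring R] (p : ℕ) [Fact p.Prime] [CharP R p] (a : R)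
    (h : IsNilpotent a) : ∃ u : Rˣ, (u : R) - 1 = a ∧ ∃ k : ℕ, orderOf u = p ^ k := by
  obtain ⟨u, hu⟩ := h.isUnit_one_add
  refine ⟨u, by rw [hu]; simp, ?_⟩
  obtain ⟨m, hm⟩ := h
  have hp : (Fact.out : p.Prime).two_le = (Fact.out : p.Prime).two_le := rfl
  have hle : m ≤ p ^ m := (Nat.lt_pow_self (Fact.out : p.Prime).one_lt).le
  have h1 : u ^ p ^ m = 1 := by
    apply Units.ext
    rw [Units.val_pow_eq_pow_val, hu, add_pow_char_pow_of_commute p m (Commute.one_left _), one_pow,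
      pow_eq_zero_of_le hle hm]
    simp
  obtain ⟨k, -, hk⟩ := (Nat.dvd_prime_pow (Fact.out : p.Prime)).1 (orderOf_dvd_of_pow_eq_one h1)
  exact ⟨k, hk⟩

theorem uni_card_ring {R : Type*} [Ring R] (p : ℕ) [Fact p.Prime] [CharP R p] :
    Nat.card {u : Rˣ // ∃ k : ℕ, orderOf u = p ^ k} = Nat.card {a : R // IsNilpotent a} := by
  apply Nat.card_congr
  refine Equiv.ofBijective (fun u => ⟨(u.1 : R) - 1, uni_nil_of_order p u.1 u.2⟩) ⟨?_, ?_⟩
  · intro u v huv
    have h1 : (u.1 : R) - 1 = (v.1 : R) - 1 := congrArg Subtype.val huv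
    exact Subtype.ext (Units.ext (sub_left_injective h1))
  · rintro ⟨a, ha⟩
    obtain ⟨u, hu, hk⟩ := uni_exists_unit p a ha
    exact ⟨⟨u, hk⟩, Subtype.ext hu⟩

/-- [UNI] -/
theorem card_unipotent {F : Type*} [Field F] [Fintype F] (p : ℕ) [Fact p.Prime] [CharP F p]
    (n : ℕ) :
    Nat.card {g : Matrix.GeneralLinearGroup (Fin n) F // ∃ k : ℕ, orderOf g = p ^ k} =
      Nat.card {N : Module.End F (Fin n → F) // IsNilpotent N} := by
  have e1 : Nat.card {g : Matrix.GeneralLinearGroup (Fin n) F // ∃ k : ℕ, orderOf g = p ^ k} =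
      Nat.card {u : (Module.End F (Fin n → F))ˣ // ∃ k : ℕ, orderOf u = p ^ k} := by
    apply Nat.card_congr
    refine Equiv.subtypeEquiv (Matrix.GeneralLinearGroup.toLin).toEquiv ?_
    intro g
    have := MulEquiv.orderOf_eq (Matrix.GeneralLinearGroup.toLin (n := Fin n) (R := F)) g
    simp only [MulEquiv.toEquiv_eq_coe, MulEquiv.coe_toEquiv]
    rw [this]
  rw [e1]
  rcases Nat.eq_zero_or_pos n with rfl | hn
  · have h1 : Subsingleton (Module.End F (Fin 0 → F)) :=
      ⟨fun a b => LinearMap.ext fun x => Subsingleton.elim _ _⟩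
    have h2 : Unique {u : (Module.End F (Fin 0 → F))ˣ // ∃ k : ℕ, orderOf u = p ^ k} :=
      { default := ⟨1, 0, by simp⟩
        uniq := fun u => Subtype.ext (Units.ext (Subsingleton.elim _ _)) }
    have h3 : Unique {N : Module.End F (Fin 0 → F) // IsNilpotent N} :=
      { default := ⟨0, IsNilpotent.zero⟩
        uniq := fun u => Subtype.ext (Subsingleton.elim _ _) }
    simp
  · have : Nonempty (Fin n) := ⟨⟨0, hn⟩⟩
    have : Nontrivial (Module.End F (Fin n → F)) := inferInstance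
    have : CharP (Module.End F (Fin n → F)) p :=
      charP_of_injective_algebraMap (algebraMap F (Module.End F (Fin n → F))).injective p
    exact uni_card_ring p

end Cfsg.Agent.Lib.Helper54.NIL
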