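import Cfsg.Agent.Lib.Helper54.NIL.ARITH
import Cfsg.Agent.Lib.Helper54.NIL.FIB
import Cfsg.Agent.Lib.Helper54.NIL.NILW
import Cfsg.Agent.Lib.Helper54.NIL.BLA
import Cfsg.Agent.Lib.Helper54.NIL.UNI
import Cfsg.Agent.Lib.Helper54.NIL.EX
import Cfsg.Agent.Lib.Helper54.NIL.SUM
import Cfsg.Agent.Lib.Helper54.NIL.BLB

set_option autoImplicit false

namespace Cfsg.Agent.Lib.Helper54.NIL

open Module

universe u v

variable {F : Type v} [Field F]

/-- the fibre over `0`. -/
theorem card_fiber_zero [Fintype F] {V : Type u} [AddCommGroup V] [Module F V]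
    [FiniteDimensional F V] {k : ℕ} (e : Fin (k + 1) → V) (he : LinearIndependent F e) :
    Nat.card {N : Module.End F V // (IsNilpotent N ∧ Chain e N) ∧ N (e (Fin.last k)) = 0} =
      Nat.card {M : Module.End F (V ⧸ Submodule.span F (Set.range e)) // IsNilpotent M} *
        Fintype.card F ^ ((k + 1) * (finrank F V - (k + 1))) := by
  obtain ⟨N₀, hN₀, hc₀, hl₀⟩ := exists_shift e he
  obtain ⟨W, hWdef⟩ : ∃ W, W = Submodule.span F (Set.range e) := ⟨_, rfl⟩
  rw [← hWdef]
  have hfW : finrank F W = k + 1 := by
    rw [hWdef, finrank_span_eq_card he]; simp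
  have hfQ : finrank F (V ⧸ W) = finrank F V - (k + 1) := by
    have := Submodule.finrank_quotient_add_finrank W
    omega
  -- the value of a chain map on the generators
  have hgen : ∀ N : Module.End F V, Chain e N → N (e (Fin.last k)) = 0 → ∀ i, N (e i) = N₀ (e i) := by
    intro N hc hl i
    by_cases hi : i = Fin.last k
    · rw [hi, hl, hl₀]
    · have hlt : (i : ℕ) < k := by
        have := i.2
        have h2 : (i : ℕ) ≠ k := fun h => hi (Fin.ext h)
        omega
      have hj : (i : ℕ) + 1 = ((⟨i + 1, by omega⟩ : Fin (k + 1)) : ℕ) := rfl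
      rw [hc i _ hj, hc₀ i _ hj]
  have hW : ∀ w ∈ W, N₀ w ∈ W := by
    intro w hw
    rw [hWdef] at hw ⊢
    induction hw using Submodule.span_induction with
    | mem x hx =>
      obtain ⟨i, rfl⟩ := hx
      by_cases hi : i = Fin.last k
      · rw [hi, hl₀]; exact Submodule.zero_mem _
      · have hlt : (i : ℕ) < k := by
          have := i.2
          have h2 : (i : ℕ) ≠ k := fun h => hi (Fin.ext h)
          omega
        have hj : (i : ℕ) + 1 = ((⟨i + 1, by omega⟩ : Fin (k + 1)) : ℕ) := rfl
        rw [hc₀ i _ hj]
        exact Submodule.subset_span ⟨_, rfl⟩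
    | zero => simp
    | add x y _ _ hx hy => rw [map_add]; exact Submodule.add_mem _ hx hy
    | smul c x _ hx => rw [map_smul]; exact Submodule.smul_mem _ _ hx
  have hce := card_extensions W N₀ hW (fun M => IsNilpotent M)
  rw [hfW, hfQ] at hce
  rw [← hce]
  apply Nat.card_congr
  apply Equiv.subtypeEquivRight
  intro N
  constructor
  · rintro ⟨⟨hn, hc⟩, hl⟩
    have hNW : ∀ w ∈ W, N w = N₀ w := by
      intro w hw
      rw [hWdef] at hw
      induction hw using Submodule.span_induction with
      | mem x hx => obtain ⟨i, rfl⟩ := hx; exact hgen N hc hl i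
      | zero => simp
      | add x y _ _ hx hy => rw [map_add, map_add, hx, hy]
      | smul c x _ hx => rw [map_smul, map_smul, hx]
    have hle : W ≤ W.comap N := fun w hw => by
      rw [Submodule.mem_comap, hNW w hw]; exact hW w hw
    refine ⟨hNW, W.mapQ W N hle, ?_, fun x => by simp⟩
    exact (isNilpotent_iff_quot W N₀ N hN₀ hW hNW _ (fun x => by simp)).1 hn
  · rintro ⟨hNW, M, hM, hMN⟩
    have hmem : ∀ i, e i ∈ W := fun i => hWdef ▸ Submodule.subset_span ⟨i, rfl⟩
    refine ⟨⟨(isNilpotent_iff_quot W N₀ N hN₀ hW hNW M hMN).2 hM, ?_⟩, ?_⟩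
    · intro i j hij
      rw [hNW _ (hmem i)]; exact hc₀ i j hij
    · rw [hNW _ (hmem _)]; exact hl₀

theorem card_nil_of_chain {V : Type u} [AddCommGroup V] [Module F V] (e₀ : V) :
    Nat.card {N : Module.End F V // IsNilpotent N} =
      Nat.card {N : Module.End F V // IsNilpotent N ∧ Chain (fun _ : Fin (0 + 1) => e₀) N} := by
  apply Nat.card_congr
  apply Equiv.subtypeEquivRight
  intro N
  refine ⟨fun h => ⟨h, ?_⟩, fun h => h.1⟩
  intro i j hij
  have h1 := i.2
  have h2 := j.2
  omega

theorem chain_count [Fintype F] : ∀ (d : ℕ) (V : Type u) [AddCommGroup V] [Module F V]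
    [FiniteDimensional F V], finrank F V = d → ∀ (k : ℕ) (e : Fin (k + 1) → V),
    LinearIndependent F e →
    Nat.card {N : Module.End F V // IsNilpotent N ∧ Chain e N} =
      Fintype.card F ^ (d * (d - (k + 1))) := by
  intro d
  induction d using Nat.strong_induction_on with
  | _ d IH =>
  intro V _ _ _ hd
  have hq : 0 < Fintype.card F := Fintype.card_pos
  -- nilpotent count in smaller dimension
  have hnil : ∀ (V' : Type u) [AddCommGroup V'] [Module F V'] [FiniteDimensional F V'],
      finrank F V' < d → Nat.card {N : Module.End F V' // IsNilpotent N} =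
        Fintype.card F ^ (finrank F V' * (finrank F V' - 1)) := by
    intro V' _ _ _ hlt
    by_cases h0 : finrank F V' = 0
    · have : Subsingleton V' := finrank_zero_iff.mp h0
      rw [h0]
      have : Unique {N : Module.End F V' // IsNilpotent N} :=
        { default := ⟨0, IsNilpotent.zero⟩
          uniq := fun N => Subtype.ext (LinearMap.ext fun x => Subsingleton.elim _ _) }
      simp
    · have : Nontrivial V' := finrank_pos_iff.mp (Nat.pos_of_ne_zero h0)
      obtain ⟨e₀, he₀⟩ := exists_ne (0 : V')
      rw [card_nil_of_chain e₀]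
      exact IH _ hlt V' rfl 0 _ (by
        have : Subsingleton (Fin (0 + 1)) := inferInstanceAs (Subsingleton (Fin 1))
        exact LinearIndependent.of_subsingleton 0 he₀)
  have main : ∀ (m k : ℕ) (e : Fin (k + 1) → V), d = m + (k + 1) → LinearIndependent F e →
      Nat.card {N : Module.End F V // IsNilpotent N ∧ Chain e N} =
        Fintype.card F ^ (d * (d - (k + 1))) := by
    intro m
    induction m with
    | zero =>
      intro k e hdk he
      have hQ : finrank F (V ⧸ Submodule.span F (Set.range e)) = d - (k + 1) := by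
        have h1 := Submodule.finrank_quotient_add_finrank (Submodule.span F (Set.range e))
        rw [finrank_span_eq_card he] at h1
        simp at h1
        omega
      have h0 := card_fiber_zero e he
      rw [hnil _ (by rw [hQ]; omega), hQ, hd] at h0
      have htop : Submodule.span F (Set.range e) = ⊤ := by
        apply Submodule.eq_top_of_finrank_eq
        rw [finrank_span_eq_card he]; simp; omega
      rw [card_eq_sum e he _ 0 h0 (fun v hv => absurd (htop ▸ Submodule.mem_top) hv)
        (fun v hv hv0 => ⟨fun N => hv0 (by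
          have := eq_zero_of_mem_span e he N.1 N.2.1.1 N.2.1.2 (by rw [N.2.2]; exact hv)
          rw [← N.2.2]; exact this)⟩)]
      have := arith (Fintype.card F) d k hq (by omega)
      rw [hd]
      have e1 : Fintype.card F ^ d - Fintype.card F ^ (k + 1) = 0 := by
        rw [hdk]; simp
      rw [e1] at this ⊢
      simpa using this
    | succ m ihm =>
      intro k e hdk he
      have hQ : finrank F (V ⧸ Submodule.span F (Set.range e)) = d - (k + 1) := by
        have h1 := Submodule.finrank_quotient_add_finrank (Submodule.span F (Set.range e))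
        rw [finrank_span_eq_card he] at h1
        simp at h1
        omega
      have h0 := card_fiber_zero e he
      rw [hnil _ (by rw [hQ]; omega), hQ, hd] at h0
      rw [card_eq_sum e he _ (Fintype.card F ^ (d * (d - (k + 2)))) h0
        (fun v hv => by
          rw [card_fiber e v]
          exact ihm (k + 1) _ (by omega) (linearIndependent_finSnoc.2 ⟨he, hv⟩))
        (fun v hv hv0 => ⟨fun N => hv0 (by
          have := eq_zero_of_mem_span e he N.1 N.2.1.1 N.2.1.2 (by rw [N.2.2]; exact hv)
          rw [← N.2.2]; exact this)⟩)]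
      rw [hd]
      exact arith (Fintype.card F) d k hq (by omega)
  intro k e he
  have hle : k + 1 ≤ d := by
    have := he.fintype_card_le_finrank
    simp at this
    omega
  exact main (d - (k + 1)) k e (by omega) he

theorem card_nilpotent [Fintype F] (V : Type u) [AddCommGroup V] [Module F V]
    [FiniteDimensional F V] : Nat.card {N : Module.End F V // IsNilpotent N} =
      Fintype.card F ^ (finrank F V * (finrank F V - 1)) := by
  by_cases h0 : finrank F V = 0
  · have : Subsingleton V := finrank_zero_iff.mp h0
    rw [h0]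
    have : Unique {N : Module.End F V // IsNilpotent N} :=
      { default := ⟨0, IsNilpotent.zero⟩
        uniq := fun N => Subtype.ext (LinearMap.ext fun x => Subsingleton.elim _ _) }
    simp
  · have : Nontrivial V := finrank_pos_iff.mp (Nat.pos_of_ne_zero h0)
    obtain ⟨e₀, he₀⟩ := exists_ne (0 : V)
    rw [card_nil_of_chain e₀]
    exact chain_count _ V rfl 0 _ (by
        have : Subsingleton (Fin (0 + 1)) := inferInstanceAs (Subsingleton (Fin 1))
        exact LinearIndependent.of_subsingleton 0 he₀)

theorem S2315_of [Fintype F] (p : ℕ) [Fact p.Prime] [CharP F p] (n : ℕ) :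
    Nat.card {g : Matrix.GeneralLinearGroup (Fin n) F // ∃ k : ℕ, orderOf g = p ^ k} =
      Fintype.card F ^ (n * (n - 1)) := by
  rw [card_unipotent p n, card_nilpotent]
  simp

end Cfsg.Agent.Lib.Helper54.NIL
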