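import Mathlib

set_option autoImplicit false

/-! S2315 (number of unipotent elements of GL_n(q)): shared definitions of the ladder "NIL". -/

namespace Cfsg.Agent.Lib.Helper54.NIL

variable {F V : Type*} [Field F] [AddCommGroup V] [Module F V]

/-- `N` maps `e i` to `e (i+1)`. -/
def Chain {k : ℕ} (e : Fin k → V) (N : Module.End F V) : Prop :=
  ∀ i j : Fin k, (i : ℕ) + 1 = j → N (e i) = e j

end Cfsg.Agent.Lib.Helper54.NIL
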